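import Cfsg.Agent.H440.J4P.Engine
import Cfsg.Agent.H859.BigNum
import Cfsg.Agent.J4.Rep112

/-!
# Elements of order 23 of J4
-/

set_option autoImplicit false

open Cfsg

namespace Cfsg.Agent.H440.J4P.Ord

open Cfsg.Agent.H440.J4P.Engine Cfsg.Agent.J4.Rep112 Subgroup

/-- Elements of order divisible by 23 have order 23. -/
theorem orderOf_eq {u : Cfsg.Spor.J4} (h : 23 ∣ orderOf u) (h0 : orderOf u ≠ 0) :
    orderOf u = 23 := by
  obtain ⟨k, hk⟩ := h
  have hk0 : k ≠ 0 := by rintro rfl; exact h0 hk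
  have hw : orderOf (u ^ k) = 23 := by
    rw [orderOf_pow' u hk0, hk, Nat.gcd_eq_right (Dvd.intro_left 23 rfl), Nat.mul_div_cancel _
      (Nat.pos_of_ne_zero hk0)]
  have hP : Nat.card (zpowers (u ^ k)) = 23 := by rw [Nat.card_zpowers, hw]
  have h1 := (Cfsg.Agent.H859.BigNum.data23 hP).1
  have hu : u ∈ centralizer ((zpowers (u ^ k) : Subgroup Cfsg.Spor.J4) : Set Cfsg.Spor.J4) := by
    rw [mem_centralizer_iff]
    rintro _ ⟨n, rfl⟩
    exact (((Commute.refl u).pow_right k).zpow_right n).eq.symm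
  have h2 : zpowers u ≤ centralizer ((zpowers (u ^ k) : Subgroup Cfsg.Spor.J4) :
      Set Cfsg.Spor.J4) := by
    rwa [zpowers_le]
  have h3 := card_dvd_of_le h2
  rw [h1, Nat.card_zpowers, hk] at h3
  have h4 : 23 * k ≤ 23 := Nat.le_of_dvd (by norm_num) h3
  have h5 : k = 1 := by omega
  rw [hk, h5]

/-- No element has order 46. -/
theorem orderOf_ne (u : Cfsg.Spor.J4) : orderOf u ≠ 2 * 23 := by
  intro h
  have h1 := orderOf_eq (u := u) (by rw [h]; norm_num) (by rw [h]; norm_num)
  rw [h] at h1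
  norm_num at h1

theorem act_pow_eq {n : ℕ} {v : Fin n → ZMod 2} {g : GL (Fin n) (ZMod 2)} (h : act v g = v)
    (k : ℕ) : act v (g ^ k) = v := by
  induction k with
  | zero => rw [pow_zero, act_one]
  | succ k ih => rw [pow_succ, act_mul, ih, h]

/-- The test of the order of the product of two involutions. -/
theorem ord_iff (hfin : ∀ u : Cfsg.Spor.J4, orderOf u ≠ 0) {a b : Cfsg.Spor.J4} (ha : a * a = 1)
    (hb : b * b = 1) {v : Fin 112 → ZMod 2} (hva : act v (rho a) = v) (hvb : act v (rho b) ≠ v) :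
    orderOf (a * b) = 23 ↔ act (act v ((rho b * rho a) ^ 11)) (rho b) =
      act v ((rho b * rho a) ^ 11) := by
  have ha' : a⁻¹ = a := inv_eq_of_mul_eq_one_left ha
  have hb' : b⁻¹ = b := inv_eq_of_mul_eq_one_left hb
  have hinv : (b * a)⁻¹ = a * b := by rw [mul_inv_rev, ha', hb']
  have hord : orderOf (a * b) = orderOf (b * a) := by rw [← hinv, orderOf_inv]
  rw [hord]
  have e0 : (rho b * rho a) ^ 11 = rho ((b * a) ^ 11) := by rw [map_pow, map_mul]
  have hcj : ∀ k : ℕ, b * (b * a) ^ k * b = ((b * a) ^ k)⁻¹ := by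
    intro k
    induction k with
    | zero => rw [pow_zero, mul_one, hb, inv_one]
    | succ k ih =>
      calc b * (b * a) ^ (k + 1) * b = (b * (b * a) ^ k * b) * (b * (b * a) * b) := by
            rw [pow_succ]
            have : b * (b * a) ^ k * b * (b * (b * a) * b) =
              b * (b * a) ^ k * (b * b) * (b * a) * b := by group
            rw [this, hb, mul_one]
            simp only [mul_assoc]
        _ = ((b * a) ^ k)⁻¹ * (b * a)⁻¹ := by
            rw [ih, hinv]
            congr 1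
            calc b * (b * a) * b = (b * b) * (a * b) := by group
              _ = a * b := by rw [hb, one_mul]
        _ = ((b * a) ^ (k + 1))⁻¹ := by rw [← mul_inv_rev, ← pow_succ']
  constructor
  · intro h
    have h23 : (b * a) ^ 23 = 1 := by rw [← h]; exact pow_orderOf_eq_one _
    -- `u ^ 11 * b = a * u ^ 11`
    have h1 : (b * a) ^ 11 * b = a * (b * a) ^ 11 := by
      have h2 : (b * a) ^ 11 * b = b * ((b * a) ^ 11)⁻¹ := by
        rw [← hcj 11]
        calc (b * a) ^ 11 * b = (b * b) * (b * a) ^ 11 * b := by rw [hb, one_mul]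
          _ = b * (b * (b * a) ^ 11 * b) := by group
      have h3 : ((b * a) ^ 11)⁻¹ = (b * a) ^ 12 := by
        rw [inv_eq_iff_mul_eq_one, ← pow_add]
        exact h23
      rw [h2, h3, pow_succ' (b * a) 11]
      have h4 : b * (b * a * (b * a) ^ 11) = (b * b) * (a * (b * a) ^ 11) := by
        simp only [mul_assoc]
      rw [h4, hb, one_mul]
    rw [e0, ← act_mul, ← map_mul, h1, map_mul, act_mul, hva]
  · intro h
    rw [e0, ← act_mul, ← map_mul] at h
    -- `v` is fixed by `u ^ 11 * b * u ^ (-11) = u ^ 22 * b`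
    have h1 : act v (rho ((b * a) ^ 23)) = v := by
      have h2 : (b * a) ^ 11 * b * ((b * a) ^ 11)⁻¹ * a⁻¹ = (b * a) ^ 23 := by
        rw [← hcj 11, ha']
        calc (b * a) ^ 11 * b * (b * (b * a) ^ 11 * b) * a =
            (b * a) ^ 11 * (b * b) * (b * a) ^ 11 * (b * a) := by group
          _ = (b * a) ^ 23 := by
            rw [hb, mul_one, ← pow_add, ← pow_succ]
      have h5 : act v (rho ((b * a) ^ 11 * b * ((b * a) ^ 11)⁻¹ * a⁻¹)) =
          act (act (act v (rho ((b * a) ^ 11 * b))) (rho ((b * a) ^ 11)⁻¹)) (rho a⁻¹) := by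
        rw [map_mul rho ((b * a) ^ 11 * b * ((b * a) ^ 11)⁻¹), map_mul rho ((b * a) ^ 11 * b),
          act_mul, act_mul]
      have h6 : act (act v (rho ((b * a) ^ 11))) (rho ((b * a) ^ 11)⁻¹) = v := by
        rw [← act_mul, ← map_mul, mul_inv_cancel, map_one, act_one]
      rw [← h2, h5, h, h6, map_inv]
      exact act_inv_of_fix hva
    have h3 : ¬ act v (rho (b * a)) = v := by
      intro h4
      apply hvb
      have h5 : act (act v (rho b)) (rho a) = act v (rho a) := by
        rw [← act_mul, ← map_mul, h4, hva]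
      exact act_injective (rho a) h5
    apply orderOf_eq _ (hfin _)
    by_contra hnd
    apply h3
    have hcop : Nat.Coprime (orderOf (b * a)) 23 :=
      ((Nat.Prime.coprime_iff_not_dvd (by norm_num)).2 hnd).symm
    obtain ⟨m, hm⟩ := exists_pow_eq_self_of_coprime hcop.symm
    rw [← hm, map_pow]
    exact act_pow_eq h1 m

end Cfsg.Agent.H440.J4P.Ord
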