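import Cfsg.Agent.H440.J4P.RepDef

/-!
# The tests of the parity count for J4, part 1
-/

set_option autoImplicit false
set_option Elab.async false

namespace Cfsg.Agent.H440.J4P.Rep0

open Cfsg.Agent.H440.J4P.RepDef

theorem r0 : tst 0 = true := by decide +kernel
theorem r1 : tst 1 = true := by decide +kernel
theorem r2 : tst 2 = true := by decide +kernel
theorem r3 : tst 3 = true := by decide +kernel
theorem r4 : tst 4 = true := by decide +kernel
theorem r5 : tst 5 = true := by decide +kernel
theorem r6 : tst 6 = true := by decide +kernel
theorem r7 : tst 7 = true := by decide +kernel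
theorem r8 : tst 8 = true := by decide +kernel
theorem r9 : tst 9 = true := by decide +kernel
theorem r10 : tst 10 = true := by decide +kernel
theorem r11 : tst 11 = true := by decide +kernel
theorem r12 : tst 12 = true := by decide +kernel
theorem r13 : tst 13 = true := by decide +kernel
theorem r14 : tst 14 = true := by decide +kernel
theorem r15 : tst 15 = true := by decide +kernel
theorem r16 : tst 16 = true := by decide +kernel
theorem r17 : tst 17 = true := by decide +kernel

theorem all (i : ℕ) (h1 : 0 ≤ i) (h2 : i < 18) : tst i = true := by
  interval_cases i
  · exact r0
  · exact r1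
  · exact r2
  · exact r3
  · exact r4
  · exact r5
  · exact r6
  · exact r7
  · exact r8
  · exact r9
  · exact r10
  · exact r11
  · exact r12
  · exact r13
  · exact r14
  · exact r15
  · exact r16
  · exact r17

end Cfsg.Agent.H440.J4P.Rep0
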