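import Cfsg.Agent.H440.J4P.RepDef

/-!
# The tests of the parity count for J4, part 2
-/

set_option autoImplicit false
set_option Elab.async false

namespace Cfsg.Agent.H440.J4P.Rep1

open Cfsg.Agent.H440.J4P.RepDef

theorem r18 : tst 18 = true := by decide +kernel
theorem r19 : tst 19 = true := by decide +kernel
theorem r20 : tst 20 = true := by decide +kernel
theorem r21 : tst 21 = true := by decide +kernel
theorem r22 : tst 22 = true := by decide +kernel
theorem r23 : tst 23 = true := by decide +kernel
theorem r24 : tst 24 = true := by decide +kernel
theorem r25 : tst 25 = true := by decide +kernel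
theorem r26 : tst 26 = true := by decide +kernel
theorem r27 : tst 27 = true := by decide +kernel
theorem r28 : tst 28 = true := by decide +kernel
theorem r29 : tst 29 = true := by decide +kernel
theorem r30 : tst 30 = true := by decide +kernel
theorem r31 : tst 31 = true := by decide +kernel
theorem r32 : tst 32 = true := by decide +kernel
theorem r33 : tst 33 = true := by decide +kernel
theorem r34 : tst 34 = true := by decide +kernel
theorem r35 : tst 35 = true := by decide +kernel

theorem all (i : ℕ) (h1 : 18 ≤ i) (h2 : i < 36) : tst i = true := by
  interval_cases i
  · exact r18
  · exact r19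
  · exact r20
  · exact r21
  · exact r22
  · exact r23
  · exact r24
  · exact r25
  · exact r26
  · exact r27
  · exact r28
  · exact r29
  · exact r30
  · exact r31
  · exact r32
  · exact r33
  · exact r34
  · exact r35

end Cfsg.Agent.H440.J4P.Rep1
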