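import Cfsg.Agent.H440.J4P.RepDef

/-!
# The tests of the parity count for J4, part 3
-/

set_option autoImplicit false
set_option Elab.async false

namespace Cfsg.Agent.H440.J4P.Rep2

open Cfsg.Agent.H440.J4P.RepDef

theorem r36 : tst 36 = true := by decide +kernel
theorem r37 : tst 37 = true := by decide +kernel
theorem r38 : tst 38 = true := by decide +kernel
theorem r39 : tst 39 = true := by decide +kernel
theorem r40 : tst 40 = true := by decide +kernel
theorem r41 : tst 41 = true := by decide +kernel
theorem r42 : tst 42 = true := by decide +kernel
theorem r43 : tst 43 = true := by decide +kernel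
theorem r44 : tst 44 = true := by decide +kernel
theorem r45 : tst 45 = true := by decide +kernel
theorem r46 : tst 46 = true := by decide +kernel
theorem r47 : tst 47 = true := by decide +kernel
theorem r48 : tst 48 = true := by decide +kernel
theorem r49 : tst 49 = true := by decide +kernel
theorem r50 : tst 50 = true := by decide +kernel
theorem r51 : tst 51 = true := by decide +kernel
theorem r52 : tst 52 = true := by decide +kernel
theorem r53 : tst 53 = true := by decide +kernel

theorem all (i : ℕ) (h1 : 36 ≤ i) (h2 : i < 54) : tst i = true := by
  interval_cases i
  · exact r36
  · exact r37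
  · exact r38
  · exact r39
  · exact r40
  · exact r41
  · exact r42
  · exact r43
  · exact r44
  · exact r45
  · exact r46
  · exact r47
  · exact r48
  · exact r49
  · exact r50
  · exact r51
  · exact r52
  · exact r53

end Cfsg.Agent.H440.J4P.Rep2
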