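import Cfsg.Agent.H440.J4P.Cent
import Cfsg.Agent.H440.J4P.Ord
import Cfsg.Agent.H440.J4P.Rep0
import Cfsg.Agent.H440.J4P.Rep1
import Cfsg.Agent.H440.J4P.Rep2

/-!
# The parity count for J4
-/

set_option autoImplicit false

open Cfsg

noncomputable section

namespace Cfsg.Agent.H440.J4P.Count

open Cfsg.Agent.Lib Cfsg.Agent.Lib.F2Mat Cfsg.Agent.Lib.F2MatGroup
open Cfsg.Agent.J4.Rep112 Cfsg.Agent.J4.Pres Cfsg.Agent.J4.M24Hom
open Cfsg.Agent.J4.Beta Cfsg.Agent.J4.Classes Cfsg.Agent.J4.Invol
open Cfsg.Agent.J4.Lower Cfsg.Agent.H858.VK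
open Cfsg.Agent.H440.J4P.Mats Cfsg.Agent.H440.J4P.Words Cfsg.Agent.H440.J4P.Cover
open Cfsg.Agent.H440.J4P.VLevel Cfsg.Agent.H440.J4P.Cent Cfsg.Agent.H440.J4P.Engine
open Cfsg.Agent.H440.J4P.RepDef Cfsg.Agent.H440.J4P.DataB Cfsg.Agent.H440.J4P.Data
open Cfsg.Agent.H440.J4P.Slots

/-! ### The fixed vector -/

/-- the vector -/
def xv : Fin 112 → ZMod 2 := toVec 112 x0

theorem x0_lt : x0 < 2 ^ 112 := by norm_num [x0]

/-- the stabilizer of the vector -/
def fixer : Subgroup Cfsg.Spor.J4 where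
  carrier := {g | act xv (rho g) = xv}
  one_mem' := by
    show act xv (rho 1) = xv
    rw [map_one, act_one]
  mul_mem' := by
    intro a b ha hb
    show act xv (rho (a * b)) = xv
    rw [map_mul, act_mul, show act xv (rho a) = xv from ha, show act xv (rho b) = xv from hb]
  inv_mem' := by
    intro a ha
    show act xv (rho a⁻¹) = xv
    rw [map_inv]
    exact act_inv_of_fix ha

theorem mem_fixer' {g : Cfsg.Spor.J4} : g ∈ fixer ↔ act xv (rho g) = xv := Iff.rfl

theorem fix_of_codes {g : GL (Fin 112) (ZMod 2)} {A : ℕ} (h : Codes 112 g A)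
    (h1 : Nat.beq (vmul 112 x0 A) x0 = true) : act xv g = xv := by
  unfold xv
  rw [← toVec_vmul_act h, Nat.eq_of_beq_eq_true h1]

theorem x_mem : x ∈ fixer := by
  rw [mem_fixer', rho_x]
  exact fix_of_codes cx (by decide +kernel)

theorem y_mem : y ∈ fixer := by
  rw [mem_fixer', rho_y]
  exact fix_of_codes cy (by decide +kernel)

theorem phi_mem (m : M24) : phi m ∈ fixer := by
  have h : (⊤ : Subgroup M24) ≤ fixer.comap phi := by
    rw [← closure_XYM, Subgroup.closure_le]
    rintro z (rfl | rfl)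
    · show phi XM ∈ fixer
      rw [phi_X]; exact x_mem
    · show phi YM ∈ fixer
      rw [phi_Y]; exact y_mem
  exact h (Subgroup.mem_top m)

theorem eJ_fix (v : ℕ) : eJ v ∈ fixer := by
  rw [mem_fixer', rho_eJ]
  let F : Subgroup (GL (Fin 112) (ZMod 2)) :=
    { carrier := {g | act xv g = xv}
      one_mem' := act_one _
      mul_mem' := by
        intro a b ha hb
        show act xv (a * b) = xv
        rw [act_mul, show act xv a = xv from ha, show act xv b = xv from hb]
      inv_mem' := by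
        intro a ha
        exact act_inv_of_fix ha }
  have hall : ∀ q ∈ qs, q ∈ F := by
    have h1 : (qsC.all fun A => Nat.beq (vmul 112 x0 A) x0) = true := by decide +kernel
    rw [List.all_eq_true] at h1
    have key : ∀ {l : List (GL (Fin 112) (ZMod 2))} {L : List ℕ},
        List.Forall₂ (Codes 112) l L → (∀ A ∈ L, Nat.beq (vmul 112 x0 A) x0 = true) →
        ∀ q ∈ l, q ∈ F := by
      intro l L h
      induction h with
      | nil => intro _ q hq; simp at hq
      | cons h1 _ ih =>
        intro h2 q hq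
        rcases List.mem_cons.1 hq with rfl | hq
        · exact fix_of_codes h1 (h2 _ (List.mem_cons_self ..))
        · exact ih (fun A hA => h2 A (List.mem_cons_of_mem _ hA)) q hq
    exact key codes_qs h1
  exact beta_mem F qs hall v

theorem bJ_not : bJ ∉ fixer := by
  rw [mem_fixer']
  intro h
  unfold xv at h
  rw [← toVec_vmul_act codes_b0] at h
  have h1 := toVec_inj (vmul_lt _ _) x0_lt h
  have h2 : Nat.beq (vmul 112 x0 (Bs.getD 0 0)) x0 = false := by decide +kernel
  rw [h1, Nat.beq_refl] at h2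
  exact absurd h2 (by decide)

theorem tJ_sq : tJ * tJ = 1 := eJ_sq 1010

theorem bJ_sq : bJ * bJ = 1 := by
  unfold bJ
  have : cJ⁻¹ * tJ * cJ * (cJ⁻¹ * tJ * cJ) = cJ⁻¹ * (tJ * tJ) * cJ := by group
  rw [this, tJ_sq]; group

theorem ord_ne (u : Cfsg.Spor.J4) : orderOf u ≠ 0 := (orderOf_pos u).ne'

/-! ### Elements commuting with `t` -/

theorem comm_t {m : M24} (hm : (m : Equiv.Perm GolayPt) ∈ Cfsg.Agent.BabyM.DuadGen.duad) :
    phi m * tJ = tJ * phi m := by
  have h : Subgroup.closure ({pM, hM} : Set M24) ≤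
      (Subgroup.centralizer ({tJ} : Set Cfsg.Spor.J4)).comap phi := by
    rw [Subgroup.closure_le]
    rintro z (rfl | rfl)
    · show phi pM ∈ Subgroup.centralizer ({tJ} : Set Cfsg.Spor.J4)
      rw [Subgroup.mem_centralizer_singleton_iff]
      unfold tJ
      rw [phi_eJ isMat_p]
      have h1 : lin MP 1010 = 1010 := by decide +kernel
      rw [h1]
    · show phi hM ∈ Subgroup.centralizer ({tJ} : Set Cfsg.Spor.J4)
      rw [Subgroup.mem_centralizer_singleton_iff]
      unfold tJ
      rw [phi_eJ isMat_h]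
      have h1 : lin MH 1010 = 1010 := by decide +kernel
      rw [h1]
  have h1 := h (mem_closure hm)
  exact Subgroup.mem_centralizer_singleton_iff.1 h1

theorem LD_closure (w : List ℕ) : evG LD w ∈ Subgroup.closure ({pM, hM} : Set M24) :=
  evG_mem _ (fun g hg => by
    simp only [LD, List.mem_cons, List.not_mem_nil, or_false] at hg
    rcases hg with rfl | rfl | rfl
    · exact Subgroup.subset_closure (Or.inl rfl)
    · exact Subgroup.inv_mem _ (Subgroup.subset_closure (Or.inl rfl))
    · exact Subgroup.subset_closure (Or.inr rfl)) _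

theorem tau_closure (h : ℕ) : tau h ∈ Subgroup.closure ({pM, hM} : Set M24) := by
  have h1 : qM ∈ Subgroup.closure ({pM, hM} : Set M24) := LD_closure wq
  have h2 : pM ∈ Subgroup.closure ({pM, hM} : Set M24) := Subgroup.subset_closure (Or.inl rfl)
  unfold tau
  exact mul_mem (pow_mem h1 _) (pow_mem h2 _)

theorem S_conj {g a : Cfsg.Spor.J4} (hg : g * tJ = tJ * g) (h : S a) : S (g * a * g⁻¹) := by
  obtain ⟨h1, h2, h3⟩ := h
  have hg' : g⁻¹ * tJ = tJ * g⁻¹ := by
    calc g⁻¹ * tJ = g⁻¹ * (tJ * g) * g⁻¹ := by group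
      _ = g⁻¹ * (g * tJ) * g⁻¹ := by rw [hg]
      _ = tJ * g⁻¹ := by group
  have e : g * a * g⁻¹ * tJ = g * (a * tJ) * g⁻¹ := by
    rw [mul_assoc, hg']; simp only [mul_assoc]
  refine ⟨?_, ?_, ?_⟩
  · calc g * a * g⁻¹ * (g * a * g⁻¹) = g * (a * a) * g⁻¹ := by group
      _ = 1 := by rw [h1]; group
  · rw [e, h2]
    calc g * (tJ * a) * g⁻¹ = (g * tJ) * a * g⁻¹ := by group
      _ = tJ * (g * a * g⁻¹) := by rw [hg]; group
  · rw [e]
    exact h3.trans (isConj_iff.2 ⟨g, rfl⟩)

/-! ### The items -/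

/-- the conjugating element -/
def gg (r h : ℕ) : M24 := evG LD (rep r).2.1 * tau h

theorem gg_closure (r h : ℕ) : gg r h ∈ Subgroup.closure ({pM, hM} : Set M24) :=
  Subgroup.mul_mem _ (LD_closure _) (tau_closure h)

theorem gg_comm (r h : ℕ) : phi (gg r h) * tJ = tJ * phi (gg r h) :=
  comm_t (closure_le_duad (gg_closure r h))

/-- the base elements -/
def bas (r c : ℕ) : Cfsg.Spor.J4 := eJ ((vl (rep r).1).getD c 0) * phi (mX (rep r).1)

/-- the elements -/
def WW (r c h : ℕ) : Cfsg.Spor.J4 := (phi (gg r h))⁻¹ * bas r c * phi (gg r h)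

/-- number of base elements -/
def len (r : ℕ) : ℕ := (vl (rep r).1).length

theorem rep_cls' : ∀ r < 54, (rep r).1 < 4 := by decide +kernel

theorem base_len : ∀ k < 4, (base k).length = (vl k).length := by decide +kernel

theorem vl_lt : ∀ k < 4, ∀ v ∈ vl k, v < 2048 := by decide +kernel

theorem vl_nodup : ∀ k < 4, (vl k).Nodup := by decide +kernel

theorem mX3 : mX 3 = 1 := rfl

theorem forall₂_getD {α β : Type*} {R : α → β → Prop} {l : List α} {m : List β}
    (h : List.Forall₂ R l m) (c : ℕ) (hc : c < l.length) (a : α) (b : β) :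
    R (l.getD c a) (m.getD c b) := by
  induction h generalizing c with
  | nil => simp at hc
  | cons h1 _ ih =>
    rcases c with _ | c
    · exact h1
    · exact ih c (by simpa using hc)

theorem codes_bas {r c : ℕ} (hr : r < 54) (hc : c < len r) :
    Codes 112 (rho (bas r c)) ((base (rep r).1).getD c 0) :=
  forall₂_getD (codes_base (rep r).1 (rep_cls' r hr)) c hc 0 0

/-- the members of the lists are in `S` -/
theorem bas_S {r c : ℕ} (hr : r < 54) (hc : c < len r) : S (bas r c) := by
  have hmem : (vl (rep r).1).getD c 0 ∈ vl (rep r).1 := by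
    rw [List.getD_eq_getElem _ _ hc]
    exact List.getElem_mem hc
  have hk := rep_cls' r hr
  unfold bas
  generalize (rep r).1 = k at hk hmem ⊢
  generalize (vl k).getD c 0 = v at hmem ⊢
  have hv : v < 2048 := vl_lt k hk v hmem
  rcases Nat.lt_or_ge k 3 with hk3 | hk3
  · exact (S_iff hk3 hv).2 hmem
  · have : k = 3 := by omega
    subst this
    rw [mX3, map_one, mul_one, S_iff_one hv]
    have h3 : ∀ v ∈ vl 3, sx (v ^^^ 1010) = true := by decide +kernel
    exact h3 v hmem

theorem WW_S {r c : ℕ} (hr : r < 54) (hc : c < len r) (h : ℕ) : S (WW r c h) := by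
  have h1 : phi (gg r h)⁻¹ * tJ = tJ * phi (gg r h)⁻¹ :=
    comm_t (closure_le_duad (Subgroup.inv_mem _ (gg_closure r h)))
  have h2 := S_conj h1 (bas_S hr hc)
  have e : phi (gg r h)⁻¹ * bas r c * (phi (gg r h)⁻¹)⁻¹ = WW r c h := by
    unfold WW
    rw [map_inv, inv_inv]
  rwa [e] at h2

theorem tst_all (r : ℕ) (hr : r < 54) : tst r = true := by
  rcases Nat.lt_or_ge r 18 with h | h
  · exact Rep0.all r (by omega) h
  rcases Nat.lt_or_ge r 36 with h' | h'
  · exact Rep1.all r h h'
  · exact Rep2.all r h' hr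

/-- the number of elements of order 23, by slots -/
theorem slots {r : ℕ} (hr : r < 54) :
    ((Finset.range (55 * len r)).filter fun s =>
      orderOf (WW r (s / 55) (s % 55) * bJ) = 23).card = (rep r).2.2 := by
  have h := tst_all r hr
  unfold tst at h
  rw [testC_eq] at h
  set G := evW 112 LC' (rep r).2.1 with hG
  set GI := evW 112 LC' (winv (rep r).2.1) with hGI
  have hlen : (base (rep r).1).length = len r := base_len _ (rep_cls' r hr)
  have hcG : Codes 112 (psi (evG LD (rep r).2.1)) G := codes_ev _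
  have hcGI : Codes 112 (psi (evG LD (rep r).2.1)⁻¹) GI := by
    rw [← evG_winv _ (rep_lt' r hr)]
    exact codes_ev _
  rw [BQ_eq] at h
  have hpos : (0 : ℕ) < 112 := by norm_num
  have hlen2 : (List.map (fun A => mul 112 (mul 112 GI A) G) (base (rep r).1)).length =
      (base (rep r).1).length := List.length_map _
  have hK : 55 * (base (rep r).1).length < 2 ^ 112 - 1 := by
    have h1 : ∀ k < 4, 55 * (base k).length < 2 ^ 112 - 1 := by decide +kernel
    exact h1 _ (rep_cls' r hr)
  have h2 := test_sound hpos (by norm_num) Bs _ hlen2 hK x0_lt h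
  rw [hlen] at h2
  rw [← h2]
  congr 1
  apply Finset.filter_congr
  intro s hs
  have hs1 := Finset.mem_range.1 hs
  have hc : s / 55 < len r := by
    rw [Nat.div_lt_iff_lt_mul (by norm_num), Nat.mul_comm]
    exact hs1
  have hh : s % 55 < 55 := Nat.mod_lt _ (by norm_num)
  generalize s / 55 = c at hc ⊢
  generalize s % 55 = k at hh ⊢
  -- the element `a'`
  set g := evG LD (rep r).2.1 with hg
  have hA : (List.map (fun A => mul 112 (mul 112 GI A) G) (base (rep r).1)).getD c 0 =
      mul 112 (mul 112 GI ((base (rep r).1).getD c 0)) G := by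
    rw [List.getD_eq_getElem _ _ (by rw [hlen2, hlen]; exact hc), List.getElem_map,
      List.getD_eq_getElem _ _ (by rw [hlen]; exact hc)]
  have hca : Codes 112 (rho ((phi g)⁻¹ * bas r c * phi g))
      ((List.map (fun A => mul 112 (mul 112 GI A) G) (base (rep r).1)).getD c 0) := by
    rw [hA, map_mul, map_mul, ← map_inv]
    exact (hcGI.mul (codes_bas hr hc)).mul hcG
  have hcb := codes_b k hh
  rw [slot_iff hcb hca 11 x0_lt]
  -- squares
  have hS := bas_S hr hc
  have ha2 : (phi g)⁻¹ * bas r c * phi g * ((phi g)⁻¹ * bas r c * phi g) = 1 := by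
    calc (phi g)⁻¹ * bas r c * phi g * ((phi g)⁻¹ * bas r c * phi g) =
        (phi g)⁻¹ * (bas r c * bas r c) * phi g := by group
      _ = 1 := by rw [hS.1]; group
  have hb2 : phi (tau k) * bJ * (phi (tau k))⁻¹ * (phi (tau k) * bJ * (phi (tau k))⁻¹) = 1 := by
    calc phi (tau k) * bJ * (phi (tau k))⁻¹ * (phi (tau k) * bJ * (phi (tau k))⁻¹) =
        phi (tau k) * (bJ * bJ) * (phi (tau k))⁻¹ := by group
      _ = 1 := by rw [bJ_sq]; group
  have hxa : act xv (rho ((phi g)⁻¹ * bas r c * phi g)) = xv := by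
    rw [← mem_fixer']
    exact fixer.mul_mem (fixer.mul_mem (fixer.inv_mem (phi_mem g))
      (fixer.mul_mem (eJ_fix _) (phi_mem _))) (phi_mem g)
  have hxb : act xv (rho (phi (tau k) * bJ * (phi (tau k))⁻¹)) ≠ xv := by
    intro h3
    apply bJ_not
    have h4 : phi (tau k) * bJ * (phi (tau k))⁻¹ ∈ fixer := h3
    have h5 := fixer.mul_mem (fixer.mul_mem (fixer.inv_mem (phi_mem (tau k))) h4)
      (phi_mem (tau k))
    have e : (phi (tau k))⁻¹ * (phi (tau k) * bJ * (phi (tau k))⁻¹) * phi (tau k) = bJ := by group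
    rwa [e] at h5
  have h6 := Ord.ord_iff ord_ne ha2 hb2 hxa hxb
  rw [show toVec 112 x0 = xv from rfl, ← h6]
  have e : WW r c k * bJ = (phi (tau k))⁻¹ * ((phi g)⁻¹ * bas r c * phi g *
      (phi (tau k) * bJ * (phi (tau k))⁻¹)) * ((phi (tau k))⁻¹)⁻¹ := by
    unfold WW gg
    rw [← hg, map_mul]
    group
  have e2 : orderOf (WW r c k * bJ) = orderOf ((phi g)⁻¹ * bas r c * phi g *
      (phi (tau k) * bJ * (phi (tau k))⁻¹)) := by
    rw [e]
    exact orderOf_injective (MulAut.conj (phi (tau k))⁻¹).toMonoidHom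
      (MulAut.conj (phi (tau k))⁻¹).injective _
  rw [e2]

/-- the property that is counted -/
def PP23 (a : Cfsg.Spor.J4) : Prop := orderOf (a * bJ) = 23

theorem sum_ind_filter {α : Type*} (s : Finset α) (p : α → Prop) [DecidablePred p] :
    ∑ a ∈ s, ind (p a) = ((s.filter p).card : ZMod 2) := by
  rw [Finset.card_filter, Nat.cast_sum]
  refine Finset.sum_congr rfl fun a _ => ?_
  by_cases h : p a
  · rw [ind_true h, if_pos h, Nat.cast_one]
  · rw [ind_false h, if_neg h, Nat.cast_zero]

theorem item_sum {r : ℕ} (hr : r < 54) :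
    ∑ c ∈ Finset.range (len r), ∑ h ∈ Finset.range 55, ind (PP23 (WW r c h)) =
      ((rep r).2.2 : ZMod 2) := by
  rw [← slots hr, ← sum_ind_filter, sum_range_mul]
  refine Finset.sum_congr rfl fun c _ => ?_
  refine Finset.sum_congr rfl fun h hh => ?_
  have hh' := Finset.mem_range.1 hh
  rw [Nat.add_mul_div_left _ _ (by norm_num), Nat.div_eq_of_lt hh', Nat.zero_add,
    Nat.add_mul_mod_self_left, Nat.mod_eq_of_lt hh']
  rfl

theorem total : ∑ r ∈ Finset.range 54, ((rep r).2.2 : ZMod 2) = 0 := by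
  decide +kernel

end Cfsg.Agent.H440.J4P.Count
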