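import Cfsg.Agent.H440.J4P.Parity
import Cfsg.Agent.H526.ObParity

/-!
# The property `NB` for J4
-/

set_option autoImplicit false

open Cfsg

namespace Cfsg.Agent.H440.J4P.JFour

open Cfsg.Agent.J4.Rep112 Cfsg.Agent.J4.Invol Cfsg.Agent.H858.VK
open Cfsg.Agent.H440.J4P.Mats Cfsg.Agent.H440.J4P.Count Cfsg.Agent.H440.J4P.Parity

theorem sq_of_conj (k : Cfsg.Spor.J4) (hk : IsConj s k) : k * k = 1 := by
  obtain ⟨g, rfl⟩ := isConj_iff.1 hk
  calc g * s * g⁻¹ * (g * s * g⁻¹) = g * (s * s) * g⁻¹ := by group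
    _ = 1 := by rw [EJ_sq rho_injective s (s_mem rho_injective)]; group

/-- **`NB` for J4.** -/
theorem nb_J4 : Cfsg.Agent.H526.OB.NB Cfsg.Spor.J4 := by
  refine Cfsg.Agent.H526.OB.NB.of_count' (r := 23) (by norm_num) (by norm_num) Ord.orderOf_ne
    (K := {k | IsConj s k}) ?_ sq_of_conj (w := wJ23) (t := tJ) orderOf_wJ tJ_sq inv_wJ not_mod
  intro g k hk
  exact IsConj.trans hk (isConj_iff.2 ⟨g, rfl⟩)

end Cfsg.Agent.H440.J4P.JFour
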