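import Cfsg.Agent.H440.J4P.Count

/-!
# The parity count for J4: the result

`even_count` : for the duad involution `tJ` and `w = tJ * bJ` of order 23, the number of conjugates `k` of the
sextet involution `s` with `k t = t k` and `k w` of order 23 is even, while the number of conjugates of `s`
is odd.
-/

set_option autoImplicit false

open Cfsg

noncomputable section

namespace Cfsg.Agent.H440.J4P.Parity

open Cfsg.Agent.Lib Cfsg.Agent.Lib.F2MatGroup
open Cfsg.Agent.J4.Rep112 Cfsg.Agent.J4.Pres Cfsg.Agent.J4.M24Hom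
open Cfsg.Agent.J4.Beta Cfsg.Agent.J4.Classes Cfsg.Agent.J4.Invol
open Cfsg.Agent.J4.Lower Cfsg.Agent.H858.VK
open Cfsg.Agent.H440.J4P.Mats Cfsg.Agent.H440.J4P.Words Cfsg.Agent.H440.J4P.Cover
open Cfsg.Agent.H440.J4P.VLevel Cfsg.Agent.H440.J4P.Cent Cfsg.Agent.H440.J4P.Engine
open Cfsg.Agent.H440.J4P.RepDef Cfsg.Agent.H440.J4P.DataB Cfsg.Agent.H440.J4P.Data
open Cfsg.Agent.H440.J4P.Count

/-! ### Multiplicities -/

theorem sum_getD {M : Type*} [AddCommMonoid M] (L : List ℕ) (f : ℕ → M) :
    ∑ c ∈ Finset.range L.length, f (L.getD c 0) = (L.map f).sum := by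
  induction L with
  | nil => simp
  | cons a L ih =>
    rw [List.length_cons, Finset.sum_range_succ', List.map_cons, List.sum_cons, ← ih, add_comm]
    rfl

/-- exactly one entry of a list without repetitions -/
theorem sum_one {L : List ℕ} (hL : L.Nodup) {v : ℕ} (hv : v ∈ L) :
    ∑ c ∈ Finset.range L.length, ind (L.getD c 0 = v) = 1 := by
  rw [sum_getD L fun w => ind (w = v)]
  induction L with
  | nil => simp at hv
  | cons a L ih =>
    rw [List.map_cons, List.sum_cons]
    rw [List.nodup_cons] at hL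
    rcases List.mem_cons.1 hv with rfl | hv
    · rw [ind_true rfl]
      have h0 : (L.map fun w => ind (w = v)).sum = 0 := by
        apply List.sum_eq_zero
        intro z hz
        obtain ⟨w, hw, rfl⟩ := List.mem_map.1 hz
        apply ind_false
        rintro rfl
        exact hL.1 hw
      rw [h0, add_zero]
    · have hne : a ≠ v := by
        rintro rfl
        exact hL.1 hv
      rw [ind_false hne, zero_add]
      exact ih hL.2 hv

theorem ind_congr {p q : Prop} (h : p ↔ q) : ind p = ind q := by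
  rw [propext h]

/-- Decomposition of the conjugate. -/
theorem WW_iff {r c h : ℕ} {a : Cfsg.Spor.J4} : WW r c h = a ↔
    bas r c = phi (gg r h) * a * (phi (gg r h))⁻¹ := by
  unfold WW
  constructor
  · rintro rfl; group
  · intro h1
    rw [h1]; group

theorem conj_dec (g : M24) (v : ℕ) (m : M24) : ∃ w < 2048,
    phi g * (eJ v * phi m) * (phi g)⁻¹ = eJ w * phi (g * m * g⁻¹) := by
  have h1 : phi g * eJ v * (phi g)⁻¹ ∈ EJ :=
    (Subgroup.mem_normalizer_iff.1 (phi_norm ⟨g, rfl⟩) _).1 (eJ_mem v)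
  obtain ⟨w, hw, h2⟩ := exists_eJ h1
  refine ⟨w, hw, ?_⟩
  rw [← h2, map_mul, map_mul, map_inv]
  group

theorem sum_zero {r : ℕ} {a : Cfsg.Spor.J4}
    (h : ∀ c h, WW r c h ≠ a) :
    ∑ c ∈ Finset.range (len r), ∑ k ∈ Finset.range 55, ind (WW r c k = a) = 0 := by
  apply Finset.sum_eq_zero
  intro c _
  apply Finset.sum_eq_zero
  intro k _
  exact ind_false (h c k)

/-- **Every element of `S` is hit an odd number of times.** -/
theorem cover_S {a : Cfsg.Spor.J4} (ha : S a) :
    ∑ r ∈ Finset.range 54, ∑ c ∈ Finset.range (len r), ∑ h ∈ Finset.range 55,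
      ind (WW r c h = a) = 1 := by
  obtain ⟨v, hv, m, hm, rfl⟩ := cent_t ha.2.1
  rw [Finset.sum_range_succ]
  have hmm : m * m = 1 := by
    have h1 := ha.1
    obtain ⟨w, -, hw⟩ : ∃ w < 2048, phi m * eJ v = eJ w * phi m := by
      obtain ⟨w, hw, h2⟩ := conj_dec m v 1
      refine ⟨w, hw, ?_⟩
      rw [map_one, mul_one, mul_one, mul_inv_cancel, map_one, mul_one] at h2
      rw [← h2]; group
    have h2 : eJ (v ^^^ w) * phi (m * m) = eJ 0 * phi 1 := by
      rw [eJ_zero, map_one, mul_one, ← h1, eJ_xor, map_mul]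
      calc eJ v * eJ w * (phi m * phi m) = eJ v * (eJ w * phi m) * phi m := by group
        _ = eJ v * phi m * (eJ v * phi m) := by rw [← hw]; group
    exact (mul_inj h2).2
  by_cases hm1 : m = 1
  · -- elementary abelian part
    subst hm1
    rw [map_one, mul_one] at ha ⊢
    have hz : ∑ r ∈ Finset.range 53, ∑ c ∈ Finset.range (len r), ∑ h ∈ Finset.range 55,
        ind (WW r c h = eJ v) = 0 := by
      apply Finset.sum_eq_zero
      intro r hr
      apply sum_zero
      intro c k hE
      rw [WW_iff] at hE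
      obtain ⟨w, -, hw⟩ := conj_dec (gg r k) v 1
      rw [map_one, mul_one, mul_one, mul_inv_cancel] at hw
      rw [hw] at hE
      unfold bas at hE
      exact mX_ne (rep_cls r (Finset.mem_range.1 hr)) (mul_inj hE).2
    rw [hz, zero_add]
    have h3 : (rep 53).1 = 3 := by decide +kernel
    have h4 : (rep 53).2.1 = [] := by decide +kernel
    have h5 := vcover hv ((S_iff_one hv).1 ha)
    rw [← sum_getD (vl 3) fun z => ∑ h ∈ Finset.range 55,
      ind ((phi (tau h))⁻¹ * eJ z * phi (tau h) = eJ v)] at h5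
    have h6 : len 53 = (vl 3).length := by unfold len; rw [h3]
    rw [h6, ← h5]
    refine Finset.sum_congr rfl fun c _ => ?_
    refine Finset.sum_congr rfl fun k _ => ?_
    have h7 : WW 53 c k = (phi (tau k))⁻¹ * eJ ((vl 3).getD c 0) * phi (tau k) := by
      unfold WW bas gg
      rw [h3, h4, mX3, map_one, mul_one, evG_nil, one_mul]
    rw [h7]
  · have hz : ∑ c ∈ Finset.range (len 53), ∑ h ∈ Finset.range 55,
        ind (WW 53 c h = eJ v * phi m) = 0 := by
      apply sum_zero
      intro c k hE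
      rw [WW_iff] at hE
      obtain ⟨w, -, hw⟩ := conj_dec (gg 53 k) v m
      rw [hw] at hE
      have h3 : (rep 53).1 = 3 := by decide +kernel
      unfold bas at hE
      rw [h3] at hE
      have h4 := (mul_inj hE).2
      rw [mX3] at h4
      apply hm1
      have h5 : m = (gg 53 k)⁻¹ * (gg 53 k * m * (gg 53 k)⁻¹) * gg 53 k := by group
      rw [h5, ← h4]; group
    rw [hz, add_zero, ← cover hm hmm hm1]
    refine Finset.sum_congr rfl fun r hr => ?_
    have hr53 := Finset.mem_range.1 hr
    rw [Finset.sum_comm]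
    refine Finset.sum_congr rfl fun k _ => ?_
    have hgg : evG LD (rep r).2.1 * tau k = gg r k := rfl
    rw [hgg]
    obtain ⟨w, hw, hwe⟩ := conj_dec (gg r k) v m
    have hk3 := rep_cls r hr53
    by_cases hE : (gg r k)⁻¹ * mX (rep r).1 * gg r k = m
    · rw [ind_true hE]
      have hE2 : gg r k * m * (gg r k)⁻¹ = mX (rep r).1 := by rw [← hE]; group
      rw [hE2] at hwe
      have hSw : S (eJ w * phi (mX (rep r).1)) := by
        rw [← hwe]
        exact S_conj (gg_comm r k) ha
      have hwv := (S_iff hk3 hw).1 hSw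
      rw [← sum_one (vl_nodup _ (by omega)) hwv]
      refine Finset.sum_congr rfl fun c hc => ind_congr ?_
      have hc' := Finset.mem_range.1 hc
      rw [WW_iff, hwe]
      unfold bas
      constructor
      · intro h8
        refine eJ_inj (vl_lt (rep r).1 (by omega) _ ?_) hw (mul_inj h8).1
        rw [List.getD_eq_getElem _ _ hc']
        exact List.getElem_mem hc'
      · intro h8
        rw [h8]
    · rw [ind_false hE]
      apply Finset.sum_eq_zero
      intro c _
      apply ind_false
      intro h8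
      rw [WW_iff, hwe] at h8
      unfold bas at h8
      apply hE
      rw [(mul_inj h8).2]; group

/-! ### The count -/

open Classical in
theorem even_card : ((Nat.card {a : Cfsg.Spor.J4 // S a ∧ PP23 a} : ℕ) : ZMod 2) = 0 := by
  have : Fintype Cfsg.Spor.J4 := Fintype.ofFinite _
  have h0 : Nat.card {a : Cfsg.Spor.J4 // S a ∧ PP23 a} =
      ((Finset.univ.filter fun a => S a).filter fun a => PP23 a).card := by
    rw [Nat.card_eq_fintype_card, Fintype.card_subtype, Finset.filter_filter]
  rw [h0, ← sum_ind_filter]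
  have h1 : ∀ a ∈ Finset.univ.filter (fun a : Cfsg.Spor.J4 => S a), ind (PP23 a) =
      ∑ r ∈ Finset.range 54, ∑ c ∈ Finset.range (len r), ∑ h ∈ Finset.range 55,
        ind (WW r c h = a) * ind (PP23 a) := by
    intro a ha
    have h2 := cover_S (Finset.mem_filter.1 ha).2
    calc ind (PP23 a) = (∑ r ∈ Finset.range 54, ∑ c ∈ Finset.range (len r),
          ∑ h ∈ Finset.range 55, ind (WW r c h = a)) * ind (PP23 a) := by rw [h2, one_mul]
      _ = _ := by
        rw [Finset.sum_mul]
        refine Finset.sum_congr rfl fun r _ => ?_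
        rw [Finset.sum_mul]
        refine Finset.sum_congr rfl fun c _ => ?_
        rw [Finset.sum_mul]
  rw [Finset.sum_congr rfl h1, Finset.sum_comm, ← total]
  refine Finset.sum_congr rfl fun r hr => ?_
  rw [Finset.sum_comm, ← item_sum (Finset.mem_range.1 hr)]
  refine Finset.sum_congr rfl fun c hc => ?_
  rw [Finset.sum_comm]
  refine Finset.sum_congr rfl fun h _ => ?_
  have hS := WW_S (Finset.mem_range.1 hr) (Finset.mem_range.1 hc) h
  rw [Finset.sum_eq_single (WW r c h)]
  · rw [ind_true rfl, one_mul]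
  · intro b _ hb
    rw [ind_false hb.symm, zero_mul]
  · intro hn
    exact absurd (Finset.mem_filter.2 ⟨Finset.mem_univ _, hS⟩) hn

/-- the element of order 23 -/
def wJ23 : Cfsg.Spor.J4 := tJ * bJ

theorem inv_wJ : tJ * wJ23 * tJ = wJ23⁻¹ := by
  unfold wJ23
  have ht : tJ⁻¹ = tJ := inv_eq_of_mul_eq_one_left tJ_sq
  have hb : bJ⁻¹ = bJ := inv_eq_of_mul_eq_one_left bJ_sq
  rw [mul_inv_rev, ht, hb]
  calc tJ * (tJ * bJ) * tJ = (tJ * tJ) * bJ * tJ := by group
    _ = bJ * tJ := by rw [tJ_sq, one_mul]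

theorem orderOf_wJ : orderOf wJ23 = 23 := by
  have : Fact (Nat.Prime 23) := ⟨by norm_num⟩
  apply orderOf_eq_prime
  · apply rho_injective
    rw [map_pow, map_one]
    have h1 : Codes 112 (rho wJ23) (F2Mat.mul 112 TZC (Bs.getD 0 0)) := by
      unfold wJ23
      rw [map_mul]
      exact codes_t.mul codes_b0
    exact (h1.pow 23).eq_one (by decide +kernel)
  · intro h
    have h1 : bJ = tJ := by
      have h2 : tJ * tJ = tJ * bJ := tJ_sq.trans h.symm
      exact (mul_left_cancel h2).symm
    apply bJ_not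
    rw [h1]
    exact eJ_fix 1010

theorem equiv_card : Nat.card {k : Cfsg.Spor.J4 // IsConj s k ∧ k * tJ = tJ * k ∧
    orderOf (k * wJ23) = 23} = Nat.card {a : Cfsg.Spor.J4 // S a ∧ PP23 a} := by
  have hs2 : ∀ k : Cfsg.Spor.J4, IsConj s k → k * k = 1 := by
    intro k hk
    obtain ⟨g, rfl⟩ := isConj_iff.1 hk
    calc g * s * g⁻¹ * (g * s * g⁻¹) = g * (s * s) * g⁻¹ := by group
      _ = 1 := by rw [EJ_sq rho_injective s (s_mem rho_injective)]; group
  refine Nat.card_congr (Equiv.subtypeEquiv (Equiv.mulRight tJ) ?_)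
  intro k
  show _ ↔ S (k * tJ) ∧ PP23 (k * tJ)
  have e1 : k * tJ * tJ = k := by rw [mul_assoc, tJ_sq, mul_one]
  have e2 : k * tJ * bJ = k * wJ23 := by unfold wJ23; rw [mul_assoc]
  unfold S PP23
  rw [e1, e2]
  constructor
  · rintro ⟨h1, h2, h3⟩
    refine ⟨⟨?_, ?_, h1⟩, h3⟩
    · calc k * tJ * (k * tJ) = k * (tJ * k) * tJ := by group
        _ = (k * k) * (tJ * tJ) := by rw [← h2]; group
        _ = 1 := by rw [hs2 k h1, tJ_sq, one_mul]
    · calc k = k * (tJ * tJ) := by rw [tJ_sq, mul_one]
        _ = (k * tJ) * tJ := by group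
        _ = (tJ * k) * tJ := by rw [h2]
        _ = tJ * (k * tJ) := by group
  · rintro ⟨⟨h1, h2, h3⟩, h4⟩
    refine ⟨h3, ?_, h4⟩
    calc k * tJ = tJ * (k * tJ) * tJ := by rw [← h2]
      _ = tJ * k * (tJ * tJ) := by group
      _ = tJ * k := by rw [tJ_sq, mul_one]

/-- **The count is even.** -/
theorem even_count : Even (Nat.card {k : Cfsg.Spor.J4 // IsConj s k ∧ k * tJ = tJ * k ∧
    orderOf (k * wJ23) = 23}) := by
  rw [equiv_card, even_iff_two_dvd]
  exact (ZMod.natCast_eq_zero_iff _ 2).1 even_card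

/-- **The class is odd.** -/
theorem odd_class : Odd (Nat.card {k : Cfsg.Spor.J4 // IsConj s k}) := by
  have h1 : Nat.card {d : Cfsg.Spor.J4 // IsConj s d} =
      (Subgroup.centralizer ({s} : Set Cfsg.Spor.J4)).index := by
    have h2 : Nat.card {d : Cfsg.Spor.J4 // IsConj s d} =
        (MulAction.orbit (ConjAct Cfsg.Spor.J4) s).ncard := by
      rw [← Nat.card_coe_set_eq]
      apply Nat.card_congr
      refine Equiv.subtypeEquivRight (fun d => ?_)
      rw [ConjAct.mem_orbit_conjAct]
      exact isConj_comm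
    rw [h2, ← MulAction.index_stabilizer, ConjAct.stabilizer_eq_centralizer]
    rfl
  have h3 := (Subgroup.centralizer ({s} : Set Cfsg.Spor.J4)).card_mul_index
  rw [card_cent_s, isJ4.2, ← h1] at h3
  have h4 : Nat.card {d : Cfsg.Spor.J4 // IsConj s d} = 3980549947 := by omega
  rw [h4]
  decide

theorem not_mod : ¬ Nat.card {k : Cfsg.Spor.J4 // IsConj s k ∧ k * tJ = tJ * k ∧
    orderOf (k * wJ23) = 23} ≡ Nat.card {k : Cfsg.Spor.J4 // IsConj s k} [MOD 2] := by
  intro h
  have h1 := Nat.even_iff.1 even_count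
  have h2 := Nat.odd_iff.1 odd_class
  unfold Nat.ModEq at h
  omega

end Cfsg.Agent.H440.J4P.Parity
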